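import Mathlib
import Cfsg.Agent.Lib.Helper60.U64.Defs

/-!
# U64 project (S6001): basic tools for `±`-commuting subgroups of `GL_4(F)`

* `card_fix_modEq`: fixed points of a conjugation of `p`-power order (any group);
* `card_half`: the centralizer of an element that anticommutes with something has index two;
* `Zc R`: the centre of `R` as a subgroup of `GL_4(F)`; its elements are scalar.
-/

set_option autoImplicit false

namespace Cfsg.Agent.Lib.Helper62.U64

open Cfsg.Agent.Lib.Helper60.U64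

universe u

section generic

variable {G : Type u} [Group G]

/-- conjugation by `y` as a permutation of a subgroup `E` normalized by `y` -/
def conjPermG (E : Subgroup G) (y : G) (h1 : ∀ g ∈ E, y * g * y⁻¹ ∈ E)
    (h2 : ∀ g ∈ E, y⁻¹ * g * y ∈ E) : Equiv.Perm E where
  toFun g := ⟨y * g.1 * y⁻¹, h1 g.1 g.2⟩
  invFun g := ⟨y⁻¹ * g.1 * y, h2 g.1 g.2⟩
  left_inv g := by
    apply Subtype.ext
    show y⁻¹ * (y * g.1 * y⁻¹) * y = g.1
    group
  right_inv g := by
    apply Subtype.ext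
    show y * (y⁻¹ * g.1 * y) * y⁻¹ = g.1
    group

theorem conjPermG_pow (E : Subgroup G) (y : G) (h1 : ∀ g ∈ E, y * g * y⁻¹ ∈ E)
    (h2 : ∀ g ∈ E, y⁻¹ * g * y ∈ E) (n : ℕ) (g : E) :
    (((conjPermG E y h1 h2) ^ n) g : G) = y ^ n * g.1 * (y ^ n)⁻¹ := by
  induction n generalizing g with
  | zero => simp
  | succ n ih =>
    rw [pow_succ, Equiv.Perm.mul_apply, ih]
    show y ^ n * (y * g.1 * y⁻¹) * (y ^ n)⁻¹ = y ^ (n + 1) * g.1 * (y ^ (n + 1))⁻¹
    rw [pow_succ]; group

theorem mem_inf_cent (E : Subgroup G) (y g : G) :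
    g ∈ E ⊓ Subgroup.centralizer {y} ↔ g ∈ E ∧ y * g = g * y := by
  rw [Subgroup.mem_inf, Subgroup.mem_centralizer_iff]
  constructor
  · rintro ⟨h1, h2⟩
    exact ⟨h1, h2 y rfl⟩
  · rintro ⟨h1, h2⟩
    refine ⟨h1, ?_⟩
    intro k hk
    rw [Set.mem_singleton_iff] at hk
    rw [hk]; exact h2

/-- The number of fixed points of a conjugation of order dividing `p` on a finite subgroup. -/
theorem card_fix_modEq (E : Subgroup G) [Finite E] (y : G) (h1 : ∀ g ∈ E, y * g * y⁻¹ ∈ E)
    (h2 : ∀ g ∈ E, y⁻¹ * g * y ∈ E) (p : ℕ) [hp : Fact p.Prime]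
    (hyp : ∀ g ∈ E, y ^ p * g = g * y ^ p) :
    Nat.card ↥(E ⊓ Subgroup.centralizer {y}) ≡ Nat.card E [MOD p] := by
  classical
  let _ : Fintype E := Fintype.ofFinite E
  have hσ : (conjPermG E y h1 h2) ^ p ^ 1 = 1 := by
    rw [pow_one]
    ext g
    rw [conjPermG_pow, hyp g.1 g.2]
    simp
  have e1 := Equiv.Perm.card_compl_support_modEq hσ
  rw [← Nat.card_eq_fintype_card] at e1
  have e3 : ((conjPermG E y h1 h2).supportᶜ).card = Nat.card ↥(E ⊓ Subgroup.centralizer {y}) := by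
    rw [← Nat.card_eq_finsetCard]
    apply Nat.card_congr
    refine ⟨fun z => ⟨z.1.1, ?_⟩, fun z => ⟨⟨z.1, ((mem_inf_cent E y z.1).mp z.2).1⟩, ?_⟩, ?_, ?_⟩
    · rw [mem_inf_cent]
      refine ⟨z.1.2, ?_⟩
      have hz := z.2
      rw [Finset.mem_compl, Equiv.Perm.mem_support, not_not] at hz
      have hz2 := congrArg Subtype.val hz
      have hz3 : y * z.1.1 * y⁻¹ = z.1.1 := hz2
      calc y * z.1.1 = y * z.1.1 * y⁻¹ * y := by group
        _ = z.1.1 * y := by rw [hz3]
    · rw [Finset.mem_compl, Equiv.Perm.mem_support, not_not]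
      apply Subtype.ext
      show y * z.1 * y⁻¹ = z.1
      rw [((mem_inf_cent E y z.1).mp z.2).2]; group
    · intro z; rfl
    · intro z; rfl
  rw [e3] at e1
  exact e1

end generic

variable {F : Type u} [Field F]

/-- In odd characteristic no invertible matrix equals its negative. -/
theorem ne_neg_self4 (h2 : (2 : F) ≠ 0) (g : GL (Fin 4) F) : g ≠ -g := by
  intro h
  have h1 : (g : M4 F) = -(g : M4 F) := by
    have := congrArg (fun z : GL (Fin 4) F => (z : M4 F)) h
    simpa using this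
  have h3 : (2 : F) • (g : M4 F) = 0 := by
    rw [two_smul]
    nth_rewrite 1 [h1]
    exact neg_add_cancel _
  have h4 : (g : M4 F) = 0 := by
    rcases smul_eq_zero.mp h3 with h | h
    · exact absurd h h2
    · exact h
  have h5 : (g : M4 F) * ((g⁻¹ : GL (Fin 4) F) : M4 F) = 1 := by
    rw [← Units.val_mul, mul_inv_cancel]; rfl
  rw [h4, zero_mul] at h5
  exact zero_ne_one h5

theorem neg_ne_self4 (h2 : (2 : F) ≠ 0) (g : GL (Fin 4) F) : -g ≠ g :=
  fun h => ne_neg_self4 h2 g h.symm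

/-- `IsPM` in group form. -/
theorem pm_comm {R : Subgroup (GL (Fin 4) F)} (hPM : IsPM R) (x y : GL (Fin 4) F) (hx : x ∈ R)
    (hy : y ∈ R) : x * y = y * x ∨ x * y = -(y * x) := by
  rcases hPM.1 x hx y hy with h | h
  · left; exact Units.ext h
  · right; apply Units.ext; rw [Units.val_neg]; exact h

theorem pm_sq {R : Subgroup (GL (Fin 4) F)} (hPM : IsPM R) (x : GL (Fin 4) F) (hx : x ∈ R) :
    x * x = 1 ∨ x * x = -1 := by
  rcases hPM.2 x hx with h | h
  · left; exact Units.ext h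
  · right; apply Units.ext; rw [Units.val_neg]; exact h

/-- An element with scalar matrix is central in `GL_4(F)`. -/
theorem scalar_comm (z g : GL (Fin 4) F) (c : F) (hz : (z : M4 F) = c • (1 : M4 F)) :
    z * g = g * z := by
  apply Units.ext
  rw [Units.val_mul, Units.val_mul, hz, smul_mul_assoc, mul_smul_comm, one_mul, mul_one]

/-- The centralizer in `H` of an element `e` has index two in `H` if `H` `±`-commutes with `e`
and contains an element anticommuting with `e`. -/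
theorem card_half (h2 : (2 : F) ≠ 0) (H : Subgroup (GL (Fin 4) F)) (e : GL (Fin 4) F)
    (hpm : ∀ x ∈ H, x * e = e * x ∨ x * e = -(e * x)) (h0 : GL (Fin 4) F) (h0H : h0 ∈ H)
    (h0e : h0 * e = -(e * h0)) :
    Nat.card H = 2 * Nat.card ↥(H ⊓ Subgroup.centralizer {e}) := by
  have hle : H ⊓ Subgroup.centralizer {e} ≤ H := inf_le_left
  have hrel : (H ⊓ Subgroup.centralizer {e}).relIndex H = 2 := by
    rw [Subgroup.relIndex_eq_two_iff]
    refine ⟨h0, h0H, ?_⟩
    intro b hb
    rw [mem_inf_cent, mem_inf_cent]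
    rcases hpm b hb with hbe | hbe
    · right
      refine ⟨⟨hb, hbe.symm⟩, ?_⟩
      rintro ⟨-, h3⟩
      have h4 : b * h0 * e = -(e * (b * h0)) := by
        rw [mul_assoc, h0e, mul_neg, ← mul_assoc, hbe, mul_assoc]
      rw [← h3] at h4
      exact ne_neg_self4 h2 _ h4
    · left
      refine ⟨⟨H.mul_mem hb h0H, ?_⟩, ?_⟩
      · rw [mul_assoc b h0 e, h0e, mul_neg, ← mul_assoc b e h0, hbe, neg_mul, neg_neg, mul_assoc]
      · rintro ⟨-, h3⟩
        rw [← h3] at hbe
        exact ne_neg_self4 h2 _ hbe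
  have hc := Subgroup.card_mul_index ((H ⊓ Subgroup.centralizer {e}).subgroupOf H)
  have hi : ((H ⊓ Subgroup.centralizer {e}).subgroupOf H).index = 2 := hrel
  rw [hi, Nat.card_congr (Subgroup.subgroupOfEquivOfLe hle).toEquiv] at hc
  omega

/-- The centre of `R`, as a subgroup of `GL_4(F)`. -/
def Zc (R : Subgroup (GL (Fin 4) F)) : Subgroup (GL (Fin 4) F) :=
  (Subgroup.center R).map R.subtype

theorem mem_Zc (R : Subgroup (GL (Fin 4) F)) (g : GL (Fin 4) F) :
    g ∈ Zc R ↔ g ∈ R ∧ ∀ s ∈ R, s * g = g * s := by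
  unfold Zc
  rw [Subgroup.mem_map]
  constructor
  · rintro ⟨x, hx, rfl⟩
    refine ⟨x.2, ?_⟩
    intro s hs
    have := Subgroup.mem_center_iff.mp hx ⟨s, hs⟩
    exact congrArg Subtype.val this
  · rintro ⟨hg, hc⟩
    refine ⟨⟨g, hg⟩, ?_, rfl⟩
    rw [Subgroup.mem_center_iff]
    intro s
    apply Subtype.ext
    exact hc s.1 s.2

theorem card_Zc (R : Subgroup (GL (Fin 4) F)) : Nat.card (Zc R) = Nat.card (Subgroup.center R) := by
  unfold Zc
  exact (Nat.card_congr
    (Subgroup.equivMapOfInjective _ _ (Subgroup.subtype_injective R)).toEquiv).symm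

theorem Zc_le (R : Subgroup (GL (Fin 4) F)) : Zc R ≤ R := fun g hg => ((mem_Zc R g).mp hg).1

/-- central elements of `R` are scalar matrices -/
theorem Zc_scalar {R : Subgroup (GL (Fin 4) F)} (hSC : ScalComm R) (g : GL (Fin 4) F)
    (hg : g ∈ Zc R) : ∃ c : F, (g : M4 F) = c • (1 : M4 F) := by
  apply hSC
  intro s hs
  have := ((mem_Zc R g).mp hg).2 s hs
  have h3 := congrArg (fun z : GL (Fin 4) F => (z : M4 F)) this
  simpa using h3.symm

/-- central elements of `R` commute with everything -/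
theorem Zc_comm {R : Subgroup (GL (Fin 4) F)} (hSC : ScalComm R) (g : GL (Fin 4) F)
    (hg : g ∈ Zc R) (k : GL (Fin 4) F) : g * k = k * g := by
  obtain ⟨c, hc⟩ := Zc_scalar hSC g hg
  exact scalar_comm g k c hc

theorem Zc_le_cent {R : Subgroup (GL (Fin 4) F)} (hSC : ScalComm R) (E : Subgroup (GL (Fin 4) F))
    (hE : Zc R ≤ E) (y : GL (Fin 4) F) : Zc R ≤ E ⊓ Subgroup.centralizer {y} := by
  intro g hg
  rw [mem_inf_cent]
  exact ⟨hE hg, (Zc_comm hSC g hg y).symm⟩

/-- divisors of 64 that are multiples of 4 -/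
theorem dvd_64_cases (n : ℕ) (h : n ∣ 64) (h4 : 4 ∣ n) :
    n = 4 ∨ n = 8 ∨ n = 16 ∨ n = 32 ∨ n = 64 := by
  have h1 : n ≤ 64 := Nat.le_of_dvd (by norm_num) h
  interval_cases n <;> revert h h4 <;> decide

end Cfsg.Agent.Lib.Helper62.U64
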