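import Mathlib
import Cfsg.Agent.Lib.Helper60.U64.Defs
import Cfsg.Agent.Lib.Helper62.U64.PMBasic

/-!
# U64 project (S6001): package [FIX7]
-/

set_option autoImplicit false

namespace Cfsg.Agent.Lib.Helper62.U64

open Cfsg.Agent.Lib.Helper60.U64

universe u

/-- [FIX7] an element of the normalizer of `R` whose seventh power is scalar is scalar. -/
theorem pkgFix7 : PkgFix7.{u} := by
  intro F _ R hPM hSC h64 hZ4 h2 y hy hy7
  obtain ⟨z, hz⟩ := hy7
  have : Fact (Nat.Prime 7) := ⟨by norm_num⟩
  have hfin : Finite R := Nat.finite_of_card_ne_zero (by rw [h64]; norm_num)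
  have hy7c : ∀ g : GL (Fin 4) F, y ^ 7 * g = g * y ^ 7 := fun g => scalar_comm _ g z hz
  have hc1 : ∀ g ∈ R, y * g * y⁻¹ ∈ R := fun g hg => (Subgroup.mem_normalizer_iff.mp hy g).mp hg
  have hc2 : ∀ g ∈ R, y⁻¹ * g * y ∈ R := by
    intro g hg
    refine (Subgroup.mem_normalizer_iff.mp hy _).mpr ?_
    have : y * (y⁻¹ * g * y) * y⁻¹ = g := by group
    rw [this]; exact hg
  have hZc4 : Nat.card (Zc R) = 4 := by rw [card_Zc, hZ4]
  -- the centralizer of y in R
  have hmod := card_fix_modEq R y hc1 hc2 7 (fun g _ => hy7c g)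
  rw [h64] at hmod
  have hZC : Zc R ≤ R ⊓ Subgroup.centralizer {y} := Zc_le_cent hSC R (Zc_le R) y
  have hd4 : 4 ∣ Nat.card ↥(R ⊓ Subgroup.centralizer {y}) := by
    have := Subgroup.card_dvd_of_le hZC
    rwa [hZc4] at this
  have hd64 : Nat.card ↥(R ⊓ Subgroup.centralizer {y}) ∣ 64 := by
    have := Subgroup.card_dvd_of_le (inf_le_left : R ⊓ Subgroup.centralizer {y} ≤ R)
    rwa [h64] at this
  unfold Nat.ModEq at hmod
  rcases dvd_64_cases _ hd64 hd4 with h | h | h | h | h
  · rw [h] at hmod; exact absurd hmod (by decide)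
  · -- the case of 8 fixed points
    exfalso
    -- an element e of C outside the centre
    have hex : ∃ e ∈ R ⊓ Subgroup.centralizer {y}, e ∉ Zc R := by
      by_contra hcon
      push Not at hcon
      have hle : R ⊓ Subgroup.centralizer {y} ≤ Zc R := hcon
      have hfinZ : Finite (Zc R) := Nat.finite_of_card_ne_zero (by rw [hZc4]; norm_num)
      have := Subgroup.card_le_of_le hle
      rw [h, hZc4] at this
      omega
    obtain ⟨e, heC, heZ⟩ := hex
    have heR : e ∈ R := ((mem_inf_cent R y e).mp heC).1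
    have hey : y * e = e * y := ((mem_inf_cent R y e).mp heC).2
    -- e is not central: some s0 anticommutes with e
    have hs0 : ∃ s0 ∈ R, s0 * e = -(e * s0) := by
      by_contra hcon
      push Not at hcon
      apply heZ
      rw [mem_Zc]
      refine ⟨heR, ?_⟩
      intro s hs
      rcases pm_comm hPM s e hs heR with h' | h'
      · exact h'
      · exact absurd h' (hcon s hs)
    obtain ⟨s0, hs0R, hs0e⟩ := hs0
    -- E = C_R(e) has order 32
    have hE := card_half h2 R e (fun x hx => pm_comm hPM x e hx heR) s0 hs0R hs0e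
    rw [h64] at hE
    have hE32 : Nat.card ↥(R ⊓ Subgroup.centralizer {e}) = 32 := by omega
    have hfinE : Finite ↥(R ⊓ Subgroup.centralizer {e}) :=
      Nat.finite_of_card_ne_zero (by rw [hE32]; norm_num)
    -- y normalizes E
    have hyi : y⁻¹ * e = e * y⁻¹ := by
      calc y⁻¹ * e = y⁻¹ * (e * y) * y⁻¹ := by group
        _ = y⁻¹ * (y * e) * y⁻¹ := by rw [hey]
        _ = e * y⁻¹ := by group
    have hn1 : ∀ g ∈ R ⊓ Subgroup.centralizer {e}, y * g * y⁻¹ ∈ R ⊓ Subgroup.centralizer {e} := by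
      intro g hg
      rw [mem_inf_cent] at hg ⊢
      refine ⟨hc1 g hg.1, ?_⟩
      calc e * (y * g * y⁻¹) = (e * y) * g * y⁻¹ := by group
        _ = y * (e * g) * y⁻¹ := by rw [← hey]; group
        _ = y * (g * e) * y⁻¹ := by rw [hg.2]
        _ = y * g * (e * y⁻¹) := by group
        _ = y * g * y⁻¹ * e := by rw [← hyi]; group
    have hn2 : ∀ g ∈ R ⊓ Subgroup.centralizer {e}, y⁻¹ * g * y ∈ R ⊓ Subgroup.centralizer {e} := by
      intro g hg
      rw [mem_inf_cent] at hg ⊢
      refine ⟨hc2 g hg.1, ?_⟩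
      calc e * (y⁻¹ * g * y) = (e * y⁻¹) * g * y := by group
        _ = y⁻¹ * (e * g) * y := by rw [← hyi]; group
        _ = y⁻¹ * (g * e) * y := by rw [hg.2]
        _ = y⁻¹ * g * (e * y) := by group
        _ = y⁻¹ * g * y * e := by rw [← hey]; group
    have hmodE := card_fix_modEq (R ⊓ Subgroup.centralizer {e}) y hn1 hn2 7 (fun g _ => hy7c g)
    rw [hE32] at hmodE
    -- the fixed points of y on E: between Zc R and C, containing e
    have hZE : Zc R ≤ R ⊓ Subgroup.centralizer {e} := Zc_le_cent hSC R (Zc_le R) e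
    have hZE' : Zc R ≤ (R ⊓ Subgroup.centralizer {e}) ⊓ Subgroup.centralizer {y} :=
      Zc_le_cent hSC _ hZE y
    have hm4 : 4 ∣ Nat.card ↥((R ⊓ Subgroup.centralizer {e}) ⊓ Subgroup.centralizer {y}) := by
      have := Subgroup.card_dvd_of_le hZE'
      rwa [hZc4] at this
    have hle8 : (R ⊓ Subgroup.centralizer {e}) ⊓ Subgroup.centralizer {y} ≤
        R ⊓ Subgroup.centralizer {y} := inf_le_inf_right _ inf_le_left
    have hm8 : Nat.card ↥((R ⊓ Subgroup.centralizer {e}) ⊓ Subgroup.centralizer {y}) ∣ 8 := by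
      have := Subgroup.card_dvd_of_le hle8
      rwa [h] at this
    have hm : Nat.card ↥((R ⊓ Subgroup.centralizer {e}) ⊓ Subgroup.centralizer {y}) = 4 ∨
        Nat.card ↥((R ⊓ Subgroup.centralizer {e}) ⊓ Subgroup.centralizer {y}) = 8 := by
      have hle := Nat.le_of_dvd (by norm_num) hm8
      generalize Nat.card ↥((R ⊓ Subgroup.centralizer {e}) ⊓ Subgroup.centralizer {y}) = m at *
      interval_cases m <;> revert hm4 hm8 <;> decide
    unfold Nat.ModEq at hmodE
    rcases hm with hm | hm
    · -- then the fixed points are exactly the centre, but e is fixed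
      have hfinK : Finite ↥((R ⊓ Subgroup.centralizer {e}) ⊓ Subgroup.centralizer {y}) :=
        Nat.finite_of_card_ne_zero (by rw [hm]; norm_num)
      have heq : Zc R = (R ⊓ Subgroup.centralizer {e}) ⊓ Subgroup.centralizer {y} := by
        apply Subgroup.eq_of_le_of_card_ge hZE'
        rw [hm, hZc4]
      apply heZ
      rw [heq, mem_inf_cent, mem_inf_cent]
      exact ⟨⟨heR, rfl⟩, hey⟩
    · rw [hm] at hmodE; exact absurd hmodE (by decide)
  · rw [h] at hmod; exact absurd hmod (by decide)
  · rw [h] at hmod; exact absurd hmod (by decide)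
  · -- y centralizes R
    have heq : R ⊓ Subgroup.centralizer {y} = R := by
      apply Subgroup.eq_of_le_of_card_ge inf_le_left
      rw [h, h64]
    apply hSC
    intro s hs
    rw [← heq, mem_inf_cent] at hs
    have h3 := congrArg (fun z : GL (Fin 4) F => (z : M4 F)) hs.2
    simpa using h3

end Cfsg.Agent.Lib.Helper62.U64
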