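import Mathlib
import Cfsg.Agent.Lib.Helper60.U64.Defs
import Cfsg.Agent.Lib.Helper62.U64.PMBasic

/-!
# U64 project (S6001): package [FRA] (a Pauli frame of `R`)
-/

set_option autoImplicit false

namespace Cfsg.Agent.Lib.Helper62.U64

open Cfsg.Agent.Lib.Helper60.U64

universe u

variable {F : Type u} [Field F]

/-- anticommutation in `GL_4(F)` -/
def Anti (x e : GL (Fin 4) F) : Prop := x * e = -(e * x)

theorem anti_symm {x e : GL (Fin 4) F} (h : Anti x e) : Anti e x := by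
  unfold Anti at h ⊢
  rw [h, neg_neg]

theorem anti_mul_anti {x y e : GL (Fin 4) F} (hx : Anti x e) (hy : Anti y e) :
    Commute (x * y) e := by
  unfold Anti at hx hy
  show x * y * e = e * (x * y)
  rw [mul_assoc x y e, hy, mul_neg, ← mul_assoc x e y, hx, neg_mul, neg_neg, mul_assoc]

theorem anti_mul_comm {x y e : GL (Fin 4) F} (hx : Anti x e) (hy : Commute y e) :
    Anti (x * y) e := by
  unfold Anti at hx ⊢
  rw [mul_assoc x y e, hy.eq, ← mul_assoc x e y, hx, neg_mul, mul_assoc]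

theorem comm_mul_anti {x y e : GL (Fin 4) F} (hx : Commute x e) (hy : Anti y e) :
    Anti (x * y) e := by
  unfold Anti at hy ⊢
  rw [mul_assoc x y e, hy, mul_neg, ← mul_assoc x e y, hx.eq, mul_assoc]

/-- multiply by a power of an element anticommuting with `a` to make `x` commute with `a` -/
theorem fix_one {x a w : GL (Fin 4) F} (hwa : Anti w a) (hx : x * a = a * x ∨ x * a = -(a * x)) :
    ∃ e : ℕ, Commute (x * w ^ e) a := by
  rcases hx with h | h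
  · exact ⟨0, by rw [pow_zero, mul_one]; exact h⟩
  · exact ⟨1, by rw [pow_one]; exact anti_mul_anti h hwa⟩

theorem pow_self_sq {a : GL (Fin 4) F} (h : a * a = 1) (e : ℕ) : a ^ e * a ^ e = 1 := by
  rw [← pow_add, ← two_mul, pow_mul, pow_two, h, one_pow]

variable {R : Subgroup (GL (Fin 4) F)}

/-- the square of the scalar of a scalar element of `R` is `±1` -/
theorem scal_sq (hPM : IsPM R) (g : GL (Fin 4) F) (hg : g ∈ R) (c : F)
    (hc : (g : M4 F) = c • (1 : M4 F)) : c * c = 1 ∨ c * c = -1 := by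
  have e1 : (g : M4 F) * (g : M4 F) = (c * c) • (1 : M4 F) := by
    rw [hc, smul_mul_smul_comm, mul_one]
  rcases hPM.2 g hg with h | h
  · left
    rw [e1] at h
    have := congrFun (congrFun h 0) 0
    simpa using this
  · right
    rw [e1] at h
    have := congrFun (congrFun h 0) 0
    simpa using this

/-- a central element of order four: a square root of `-1` -/
theorem exists_i (hPM : IsPM R) (hSC : ScalComm R) (hZc4 : Nat.card (Zc R) = 4) (h2 : (2 : F) ≠ 0) :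
    ∃ (i : F) (zi : GL (Fin 4) F), i * i = -1 ∧ zi ∈ Zc R ∧ (zi : M4 F) = i • (1 : M4 F) := by
  by_contra hcon
  push Not at hcon
  have hsub : (Zc R : Set (GL (Fin 4) F)) ⊆ {1, -1} := by
    intro g hg
    obtain ⟨c, hc⟩ := Zc_scalar hSC g hg
    rcases scal_sq hPM g (Zc_le R hg) c hc with h | h
    · have h0 : (c - 1) * (c + 1) = 0 := by linear_combination h
      rcases mul_eq_zero.mp h0 with h1 | h1
      · left
        apply Units.ext
        rw [hc, sub_eq_zero.mp h1, one_smul]; rfl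
      · right
        apply Units.ext
        rw [hc, eq_neg_of_add_eq_zero_left h1, Units.val_neg, neg_smul, one_smul]; rfl
    · exact absurd hc (hcon c g h hg)
  have h1 : Nat.card (Zc R) ≤ 2 := by
    have e1 : Nat.card (Zc R) = (Zc R : Set (GL (Fin 4) F)).ncard := Nat.card_coe_set_eq _
    rw [e1]
    calc (Zc R : Set (GL (Fin 4) F)).ncard ≤ ({1, -1} : Set (GL (Fin 4) F)).ncard :=
          Set.ncard_le_ncard hsub (Set.toFinite _)
      _ = 2 := Set.ncard_pair (ne_neg_self4 h2 1)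
  omega

/-- normalization of squares by a central element -/
theorem exists_norm (hPM : IsPM R) {i : F} {zi : GL (Fin 4) F} (hii : i * i = -1) (hziR : zi ∈ R)
    (hzi : (zi : M4 F) = i • (1 : M4 F)) (x : GL (Fin 4) F) (hx : x ∈ R) :
    ∃ w ∈ R, (∀ g : GL (Fin 4) F, Commute w g) ∧ (w * x) * (w * x) = 1 := by
  rcases pm_sq hPM x hx with h | h
  · exact ⟨1, R.one_mem, fun g => Commute.one_left g, by rw [one_mul]; exact h⟩
  · refine ⟨zi, hziR, fun g => scalar_comm zi g i hzi, ?_⟩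
    have hzz : zi * zi = -1 := by
      apply Units.ext
      rw [Units.val_mul, hzi, smul_mul_smul_comm, mul_one, hii, Units.val_neg, Units.val_one,
        neg_smul, one_smul]
    have hc : zi * x = x * zi := scalar_comm zi x i hzi
    calc zi * x * (zi * x) = zi * (x * zi) * x := by group
      _ = zi * (zi * x) * x := by rw [hc]
      _ = (zi * zi) * (x * x) := by group
      _ = 1 := by rw [hzz, h, neg_mul_neg, one_mul]

/-- a non-central element has an anticommuting partner -/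
theorem exists_anti (hPM : IsPM R) (e : GL (Fin 4) F) (heR : e ∈ R) (heZ : e ∉ Zc R) :
    ∃ s ∈ R, Anti s e := by
  by_contra hcon
  push Not at hcon
  apply heZ
  rw [mem_Zc]
  refine ⟨heR, fun s hs => ?_⟩
  rcases pm_comm hPM s e hs heR with h' | h'
  · exact h'
  · exact absurd h' (hcon s hs)

/-- a subgroup with more than four elements is not central -/
theorem exists_noncentral (hZc4 : Nat.card (Zc R) = 4) (H : Subgroup (GL (Fin 4) F))
    (hH : 4 < Nat.card H) : ∃ e ∈ H, e ∉ Zc R := by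
  by_contra hcon
  push Not at hcon
  have hle : H ≤ Zc R := hcon
  have hfinZ : Finite (Zc R) := Nat.finite_of_card_ne_zero (by rw [hZc4]; norm_num)
  have := Subgroup.card_le_of_le hle
  omega

/-- the first hyperbolic pair -/
theorem exists_pair1 (hPM : IsPM R) (h64 : Nat.card R = 64) (hZc4 : Nat.card (Zc R) = 4)
    (hnorm : ∀ x ∈ R, ∃ w ∈ R, (∀ g : GL (Fin 4) F, Commute w g) ∧ (w * x) * (w * x) = 1) :
    ∃ a1 ∈ R, ∃ b1 ∈ R, a1 * a1 = 1 ∧ b1 * b1 = 1 ∧ Anti a1 b1 := by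
  obtain ⟨a1r, ha1rR, ha1rZ⟩ := exists_noncentral hZc4 R (by rw [h64]; norm_num)
  obtain ⟨b1r, hb1rR, hb1r⟩ := exists_anti hPM a1r ha1rR ha1rZ
  obtain ⟨w1, hw1R, hw1c, ha1sq⟩ := hnorm a1r ha1rR
  obtain ⟨w2, hw2R, hw2c, hb1sq⟩ := hnorm b1r hb1rR
  refine ⟨w1 * a1r, R.mul_mem hw1R ha1rR, w2 * b1r, R.mul_mem hw2R hb1rR, ha1sq, hb1sq, ?_⟩
  have h1 : Anti (w2 * b1r) a1r := comm_mul_anti (hw2c a1r) hb1r
  exact comm_mul_anti (hw1c _) (anti_symm h1)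

/-- the second hyperbolic pair -/
theorem exists_pair2 (hPM : IsPM R) (h64 : Nat.card R = 64) (hZc4 : Nat.card (Zc R) = 4)
    (h2 : (2 : F) ≠ 0)
    (hnorm : ∀ x ∈ R, ∃ w ∈ R, (∀ g : GL (Fin 4) F, Commute w g) ∧ (w * x) * (w * x) = 1)
    (a1 b1 : GL (Fin 4) F) (ha1R : a1 ∈ R) (hb1R : b1 ∈ R) (hab1 : Anti a1 b1) :
    ∃ a2 ∈ R, ∃ b2 ∈ R, a2 * a2 = 1 ∧ b2 * b2 = 1 ∧ Anti a2 b2 ∧ Commute a1 a2 ∧ Commute a1 b2 ∧
      Commute b1 a2 ∧ Commute b1 b2 := by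
  have hR1 := card_half h2 R a1 (fun x hx => pm_comm hPM x a1 hx ha1R) b1 hb1R (anti_symm hab1)
  have hR2 := card_half h2 (R ⊓ Subgroup.centralizer {a1}) b1
    (fun x hx => pm_comm hPM x b1 ((mem_inf_cent R a1 x).mp hx).1 hb1R) a1
    (by rw [mem_inf_cent]; exact ⟨ha1R, rfl⟩) hab1
  have h16 : Nat.card ↥((R ⊓ Subgroup.centralizer {a1}) ⊓ Subgroup.centralizer {b1}) = 16 := by
    omega
  obtain ⟨a2r, ha2r2, ha2rZ⟩ := exists_noncentral hZc4 _ (by rw [h16]; norm_num)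
  rw [mem_inf_cent, mem_inf_cent] at ha2r2
  obtain ⟨⟨ha2rR, hc1⟩, hc2⟩ := ha2r2
  have hc1' : Commute a1 a2r := hc1
  have hc2' : Commute b1 a2r := hc2
  obtain ⟨br, hbrR, hbr⟩ := exists_anti hPM a2r ha2rR ha2rZ
  obtain ⟨f, hf⟩ := fix_one (anti_symm hab1) (pm_comm hPM br a1 hbrR ha1R)
  have hm1 : br * b1 ^ f ∈ R := R.mul_mem hbrR (R.pow_mem hb1R f)
  obtain ⟨e, he⟩ := fix_one hab1 (pm_comm hPM (br * b1 ^ f) b1 hm1 hb1R)
  have hm2 : br * b1 ^ f * a1 ^ e ∈ R := R.mul_mem hm1 (R.pow_mem ha1R e)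
  have k1 : Commute (br * b1 ^ f * a1 ^ e) a1 :=
    Commute.mul_left hf ((Commute.refl a1).pow_left e)
  have k2 : Anti (br * b1 ^ f * a1 ^ e) a2r :=
    anti_mul_comm (anti_mul_comm hbr (Commute.pow_left hc2' f)) (Commute.pow_left hc1' e)
  obtain ⟨w3, hw3R, hw3c, ha2sq⟩ := hnorm a2r ha2rR
  obtain ⟨w4, hw4R, hw4c, hb2sq⟩ := hnorm _ hm2
  refine ⟨w3 * a2r, R.mul_mem hw3R ha2rR, w4 * (br * b1 ^ f * a1 ^ e), R.mul_mem hw4R hm2,
    ha2sq, hb2sq, ?_, ?_, ?_, ?_, ?_⟩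
  · have h1 : Anti (w4 * (br * b1 ^ f * a1 ^ e)) a2r := comm_mul_anti (hw4c a2r) k2
    exact comm_mul_anti (hw3c _) (anti_symm h1)
  · exact Commute.mul_right (hw3c a1).symm hc1'
  · exact Commute.mul_right (hw4c a1).symm k1.symm
  · exact Commute.mul_right (hw3c b1).symm hc2'
  · exact Commute.mul_right (hw4c b1).symm he.symm

/-- the elements of `R` commuting with the frame are central -/
theorem frame_kernel (hPM : IsPM R) (hSC : ScalComm R) (h64 : Nat.card R = 64)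
    (hZc4 : Nat.card (Zc R) = 4) (h2 : (2 : F) ≠ 0)
    (a1 b1 a2 b2 : GL (Fin 4) F) (ha1R : a1 ∈ R) (hb1R : b1 ∈ R) (ha2R : a2 ∈ R) (hb2R : b2 ∈ R)
    (hab1 : Anti a1 b1) (hab2 : Anti a2 b2) (h11 : Commute a1 a2) (h12 : Commute a1 b2)
    (h21 : Commute b1 a2) (h22 : Commute b1 b2) (x : GL (Fin 4) F) (hx : x ∈ R)
    (c1 : Commute x a1) (c2 : Commute x b1) (c3 : Commute x a2) (c4 : Commute x b2) :
    x ∈ Zc R := by
  have hR1 := card_half h2 R a1 (fun x hx => pm_comm hPM x a1 hx ha1R) b1 hb1R (anti_symm hab1)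
  have hR2 := card_half h2 (R ⊓ Subgroup.centralizer {a1}) b1
    (fun x hx => pm_comm hPM x b1 ((mem_inf_cent R a1 x).mp hx).1 hb1R) a1
    (by rw [mem_inf_cent]; exact ⟨ha1R, rfl⟩) hab1
  have hR3 := card_half h2 ((R ⊓ Subgroup.centralizer {a1}) ⊓ Subgroup.centralizer {b1}) a2
    (fun x hx => pm_comm hPM x a2
      ((mem_inf_cent R a1 x).mp ((mem_inf_cent _ b1 x).mp hx).1).1 ha2R) b2
    (by rw [mem_inf_cent, mem_inf_cent]; exact ⟨⟨hb2R, h12.eq⟩, h22.eq⟩) (anti_symm hab2)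
  have hR4 := card_half h2
    (((R ⊓ Subgroup.centralizer {a1}) ⊓ Subgroup.centralizer {b1}) ⊓ Subgroup.centralizer {a2}) b2
    (fun x hx => pm_comm hPM x b2
      ((mem_inf_cent R a1 x).mp ((mem_inf_cent _ b1 x).mp ((mem_inf_cent _ a2 x).mp hx).1).1).1
      hb2R) a2
    (by rw [mem_inf_cent, mem_inf_cent, mem_inf_cent]; exact ⟨⟨⟨ha2R, h11.eq⟩, h21.eq⟩, rfl⟩) hab2
  have h4 : Nat.card ↥((((R ⊓ Subgroup.centralizer {a1}) ⊓ Subgroup.centralizer {b1}) ⊓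
      Subgroup.centralizer {a2}) ⊓ Subgroup.centralizer {b2}) = 4 := by omega
  have hZle : Zc R ≤ (((R ⊓ Subgroup.centralizer {a1}) ⊓ Subgroup.centralizer {b1}) ⊓
      Subgroup.centralizer {a2}) ⊓ Subgroup.centralizer {b2} :=
    Zc_le_cent hSC _ (Zc_le_cent hSC _ (Zc_le_cent hSC _ (Zc_le_cent hSC R (Zc_le R) a1) b1) a2) b2
  have hfin4 : Finite ↥((((R ⊓ Subgroup.centralizer {a1}) ⊓ Subgroup.centralizer {b1}) ⊓
      Subgroup.centralizer {a2}) ⊓ Subgroup.centralizer {b2}) :=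
    Nat.finite_of_card_ne_zero (by rw [h4]; norm_num)
  have heq := Subgroup.eq_of_le_of_card_ge hZle (by rw [h4, hZc4])
  rw [heq, mem_inf_cent, mem_inf_cent, mem_inf_cent, mem_inf_cent]
  exact ⟨⟨⟨⟨hx, c1.eq.symm⟩, c2.eq.symm⟩, c3.eq.symm⟩, c4.eq.symm⟩

/-- every element of `R` is a central element times a word in the frame -/
theorem frame_word (hPM : IsPM R) (hSC : ScalComm R) (h64 : Nat.card R = 64)
    (hZc4 : Nat.card (Zc R) = 4) (h2 : (2 : F) ≠ 0)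
    (a1 b1 a2 b2 : GL (Fin 4) F) (ha1R : a1 ∈ R) (hb1R : b1 ∈ R) (ha2R : a2 ∈ R) (hb2R : b2 ∈ R)
    (ha1 : a1 * a1 = 1) (hb1 : b1 * b1 = 1) (ha2 : a2 * a2 = 1) (hb2 : b2 * b2 = 1)
    (hab1 : Anti a1 b1) (hab2 : Anti a2 b2) (h11 : Commute a1 a2) (h12 : Commute a1 b2)
    (h21 : Commute b1 a2) (h22 : Commute b1 b2) (x : GL (Fin 4) F) (hx : x ∈ R) :
    ∃ e1 f1 e2 f2 : ℕ, ∃ x4 ∈ Zc R, x = x4 * a1 ^ e1 * b1 ^ f1 * a2 ^ e2 * b2 ^ f2 := by
  obtain ⟨f2, hf2⟩ := fix_one (anti_symm hab2) (pm_comm hPM x a2 hx ha2R)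
  have m1 : x * b2 ^ f2 ∈ R := R.mul_mem hx (R.pow_mem hb2R f2)
  obtain ⟨e2, he2⟩ := fix_one hab2 (pm_comm hPM _ b2 m1 hb2R)
  have m2 : x * b2 ^ f2 * a2 ^ e2 ∈ R := R.mul_mem m1 (R.pow_mem ha2R e2)
  obtain ⟨f1, hf1⟩ := fix_one (anti_symm hab1) (pm_comm hPM _ a1 m2 ha1R)
  have m3 : x * b2 ^ f2 * a2 ^ e2 * b1 ^ f1 ∈ R := R.mul_mem m2 (R.pow_mem hb1R f1)
  obtain ⟨e1, he1⟩ := fix_one hab1 (pm_comm hPM _ b1 m3 hb1R)
  have m4 : x * b2 ^ f2 * a2 ^ e2 * b1 ^ f1 * a1 ^ e1 ∈ R := R.mul_mem m3 (R.pow_mem ha1R e1)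
  have ca2_2 : Commute (x * b2 ^ f2 * a2 ^ e2) a2 :=
    Commute.mul_left hf2 ((Commute.refl a2).pow_left e2)
  have ca2_3 : Commute (x * b2 ^ f2 * a2 ^ e2 * b1 ^ f1) a2 :=
    Commute.mul_left ca2_2 (Commute.pow_left h21 f1)
  have ca2_4 : Commute (x * b2 ^ f2 * a2 ^ e2 * b1 ^ f1 * a1 ^ e1) a2 :=
    Commute.mul_left ca2_3 (Commute.pow_left h11 e1)
  have cb2_3 : Commute (x * b2 ^ f2 * a2 ^ e2 * b1 ^ f1) b2 :=
    Commute.mul_left he2 (Commute.pow_left h22 f1)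
  have cb2_4 : Commute (x * b2 ^ f2 * a2 ^ e2 * b1 ^ f1 * a1 ^ e1) b2 :=
    Commute.mul_left cb2_3 (Commute.pow_left h12 e1)
  have ca1_4 : Commute (x * b2 ^ f2 * a2 ^ e2 * b1 ^ f1 * a1 ^ e1) a1 :=
    Commute.mul_left hf1 ((Commute.refl a1).pow_left e1)
  have hx4 := frame_kernel hPM hSC h64 hZc4 h2 a1 b1 a2 b2 ha1R hb1R ha2R hb2R hab1 hab2 h11 h12
    h21 h22 _ m4 ca1_4 he1 ca2_4 cb2_4
  refine ⟨e1, f1, e2, f2, _, hx4, ?_⟩
  have p1 := pow_self_sq ha1 e1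
  have p2 := pow_self_sq hb1 f1
  have p3 := pow_self_sq ha2 e2
  have p4 := pow_self_sq hb2 f2
  calc x = x * (b2 ^ f2 * (a2 ^ e2 * (b1 ^ f1 * (a1 ^ e1 * a1 ^ e1) * b1 ^ f1) * a2 ^ e2) *
        b2 ^ f2) := by rw [p1, mul_one, p2, mul_one, p3, mul_one, p4, mul_one]
    _ = x * b2 ^ f2 * a2 ^ e2 * b1 ^ f1 * a1 ^ e1 * a1 ^ e1 * b1 ^ f1 * a2 ^ e2 * b2 ^ f2 := by
        simp only [mul_assoc]

/-- a central element of `R` is a power of `i` -/
theorem scal_pow_i (hPM : IsPM R) (hSC : ScalComm R) {i : F} (hii : i * i = -1)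
    (x4 : GL (Fin 4) F) (hx4 : x4 ∈ Zc R) : ∃ k : ℕ, (x4 : M4 F) = i ^ k • (1 : M4 F) := by
  obtain ⟨c, hc⟩ := Zc_scalar hSC x4 hx4
  rcases scal_sq hPM x4 (Zc_le R hx4) c hc with h | h
  · have h0 : (c - 1) * (c + 1) = 0 := by linear_combination h
    rcases mul_eq_zero.mp h0 with h1 | h1
    · exact ⟨0, by rw [hc, pow_zero, sub_eq_zero.mp h1]⟩
    · exact ⟨2, by rw [hc, pow_two, hii, eq_neg_of_add_eq_zero_left h1]⟩
  · have h0 : (c - i) * (c + i) = 0 := by linear_combination h - hii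
    rcases mul_eq_zero.mp h0 with h1 | h1
    · exact ⟨1, by rw [hc, pow_one, sub_eq_zero.mp h1]⟩
    · refine ⟨3, ?_⟩
      have h3 : i ^ 3 = -i := by
        rw [pow_succ, pow_two, hii]; ring
      rw [hc, h3, eq_neg_of_add_eq_zero_left h1]

/-- [FRA] a Pauli frame of `R`. -/
theorem pkgFrA : PkgFrA.{u} := by
  intro F _ R hPM hSC h64 hZ4 h2
  have hZc4 : Nat.card (Zc R) = 4 := by rw [card_Zc, hZ4]
  obtain ⟨i, zi, hii, hziZ, hzi⟩ := exists_i hPM hSC hZc4 h2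
  have hziR : zi ∈ R := Zc_le R hziZ
  have hnorm := exists_norm hPM hii hziR hzi
  obtain ⟨a1, ha1R, b1, hb1R, ha1, hb1, hab1⟩ := exists_pair1 hPM h64 hZc4 hnorm
  obtain ⟨a2, ha2R, b2, hb2R, ha2, hb2, hab2, h11, h12, h21, h22⟩ :=
    exists_pair2 hPM h64 hZc4 h2 hnorm a1 b1 ha1R hb1R hab1
  refine ⟨i, a1, b1, a2, b2, hii, ha1R, hb1R, ha2R, hb2R,
    ⟨ha1, hb1, ha2, hb2, ?_, ?_, h11.eq, h12.eq, h21.eq, h22.eq⟩, ⟨zi, hziR, hzi⟩, ?_⟩
  · have := congrArg Units.val hab1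
    simpa using this
  · have := congrArg Units.val hab2
    simpa using this
  · intro x hx
    obtain ⟨e1, f1, e2, f2, x4, hx4, hxe⟩ := frame_word hPM hSC h64 hZc4 h2 a1 b1 a2 b2 ha1R hb1R
      ha2R hb2R ha1 hb1 ha2 hb2 hab1 hab2 h11 h12 h21 h22 x hx
    obtain ⟨k, hk⟩ := scal_pow_i hPM hSC hii x4 hx4
    refine ⟨k, e1, f1, e2, f2, ?_⟩
    rw [hxe]
    simp only [Units.val_mul, Units.val_pow_eq_pow_val]
    rw [hk]
    simp only [smul_mul_assoc, one_mul]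

end Cfsg.Agent.Lib.Helper62.U64
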