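import Mathlib
import Cfsg.Agent.Lib.Helper60.U64.Defs

/-!
# U64 project (S6001): package [W3]
-/

set_option autoImplicit false

namespace Cfsg.Agent.Lib.Helper62.U64

open Cfsg.Agent.Lib.Helper60.U64

universe u

/-- [W3] a primitive cube root of unity of norm one when `p ≡ 2 (mod 3)`. -/
theorem pkgW3 : PkgW3.{u} := by
  intro F _ _ p hcard hp h3
  classical
  have : Fact (Nat.Prime 3) := ⟨by norm_num⟩
  -- 3 ∣ p + 1
  obtain ⟨m, hm⟩ : 3 ∣ p + 1 := by omega
  have hcu : Fintype.card Fˣ = p ^ 2 - 1 := by rw [Fintype.card_units, hcard]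
  have hd : 3 ∣ Fintype.card Fˣ := by
    rw [hcu]
    have h1 : p ^ 2 - 1 = (p - 1) * (p + 1) := by
      have hp1 : 1 ≤ p := hp.one_lt.le
      obtain ⟨k, rfl⟩ : ∃ k, p = k + 1 := ⟨p - 1, by omega⟩
      simp only [Nat.add_sub_cancel]
      have : (k + 1) ^ 2 = k * (k + 1 + 1) + 1 := by ring
      rw [this, Nat.add_sub_cancel]
    rw [h1, hm]
    exact ⟨(p - 1) * m, by ring⟩
  obtain ⟨x, hx⟩ := exists_prime_orderOf_dvd_card 3 hd
  have hx3 : x ^ 3 = 1 := by rw [← hx]; exact pow_orderOf_eq_one x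
  have hx1 : x ≠ 1 := by
    intro h
    rw [h, orderOf_one] at hx
    exact absurd hx (by norm_num)
  have hw3 : (x : F) ^ 3 = 1 := by
    have := congrArg Units.val hx3
    simpa using this
  have hw1 : (x : F) ≠ 1 := by
    intro h
    apply hx1
    exact Units.ext h
  refine ⟨(x : F), ?_, ?_⟩
  · have h1 : ((x : F) - 1) * ((x : F) * (x : F) + (x : F) + 1) = 0 := by
      have : ((x : F) - 1) * ((x : F) * (x : F) + (x : F) + 1) = (x : F) ^ 3 - 1 := by ring
      rw [this, hw3, sub_self]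
    rcases mul_eq_zero.mp h1 with h | h
    · exact absurd (sub_eq_zero.mp h) hw1
    · exact h
  · rw [hm, pow_mul, hw3, one_pow]

end Cfsg.Agent.Lib.Helper62.U64
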